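import Cfsg.Agent.Lib.Steiner.Count

/-! In a Steiner system `S(5,8,24)`, a small set meets some block oddly. -/
set_option autoImplicit false
set_option linter.all false

namespace CfsgLib.SteinerEven

open Cfsg

variable {α : Type*} [Fintype α] [DecidableEq α]

theorem exists_outside {s : Finset α} {n : ℕ} (h : s.card + n ≤ Fintype.card α) :
    ∃ t : Finset α, Disjoint s t ∧ t.card = n := by
  obtain ⟨t, ht, hc⟩ := Finset.exists_subset_card_eq (s := sᶜ) (n := n) (by
    rw [Finset.card_compl]; omega)
  exact ⟨t, Finset.disjoint_left.2 fun x hx hx' => Finset.mem_compl.1 (ht hx') hx, hc⟩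

/-- a nonempty set of at most four points meets some block in an odd number of points -/
theorem odd_meet {B : Set (Finset α)} (hB : IsSteinerSystem 5 8 B) (hα : Fintype.card α = 24)
    {u : Finset α} (h0 : u.Nonempty) (h4 : u.card ≤ 4) : ∃ b ∈ B, Odd (b ∩ u).card := by
  rcases Nat.even_or_odd u.card with he | ho
  · obtain ⟨d, hd⟩ := h0
    obtain ⟨t, htd, htc⟩ := exists_outside (s := u) (n := 5 - u.card) (by omega)
    obtain ⟨b₁, ⟨hb₁, hs₁⟩, -⟩ := hB.2 (u ∪ t) (by rw [Finset.card_union_of_disjoint htd]; omega)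
    obtain ⟨y, -, hy⟩ := Finset.exists_mem_notMem_of_card_lt_card (s := b₁) (t := Finset.univ) (by
      rw [hB.1 b₁ hb₁, Finset.card_univ]; omega)
    have hs : ((u.erase d) ∪ t ∪ {y}).card = 5 := by
      have hy1 : y ∉ u.erase d ∪ t := fun h => hy (hs₁ (by
        rcases Finset.mem_union.1 h with h | h
        · exact Finset.mem_union_left _ (Finset.mem_of_mem_erase h)
        · exact Finset.mem_union_right _ h))
      rw [Finset.card_union_of_disjoint (Finset.disjoint_singleton_right.2 hy1), Finset.card_singleton,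
        Finset.card_union_of_disjoint (Finset.disjoint_of_subset_left (Finset.erase_subset _ _) htd),
        Finset.card_erase_of_mem hd]
      have := Finset.card_pos.2 ⟨d, hd⟩
      omega
    obtain ⟨b, ⟨hb, hsb⟩, -⟩ := hB.2 _ hs
    refine ⟨b, hb, ?_⟩
    by_cases hdb : d ∈ b
    · exfalso
      have hsub : u ∪ t ⊆ b := by
        intro x hx
        rcases Finset.mem_union.1 hx with hx | hx
        · by_cases hxd : x = d
          · exact hxd ▸ hdb
          · exact hsb (Finset.mem_union_left _ (Finset.mem_union_left _ (Finset.mem_erase.2 ⟨hxd, hx⟩)))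
        · exact hsb (Finset.mem_union_left _ (Finset.mem_union_right _ hx))
      have e := Steiner.exists_unique_block hB hb₁ hb
        (s := u ∪ t) (by rw [Finset.card_union_of_disjoint htd]; omega) hs₁ hsub
      exact hy (e ▸ hsb (Finset.mem_union_right _ (Finset.mem_singleton_self y)))
    · have : b ∩ u = u.erase d := by
        ext x
        simp only [Finset.mem_inter, Finset.mem_erase]
        exact ⟨fun ⟨h1, h2⟩ => ⟨fun e => hdb (e ▸ h1), h2⟩,
          fun h => ⟨hsb (Finset.mem_union_left _ (Finset.mem_union_left _ (Finset.mem_erase.2 h))), h.2⟩⟩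
      rw [this, Finset.card_erase_of_mem hd]
      obtain ⟨k, hk⟩ := he
      have := Finset.card_pos.2 ⟨d, hd⟩
      exact ⟨k - 1, by omega⟩
  · obtain ⟨t, htd, htc⟩ := exists_outside (s := u) (n := 5 - u.card) (by omega)
    obtain ⟨b, ⟨hb, hsb⟩, -⟩ := hB.2 (u ∪ t) (by rw [Finset.card_union_of_disjoint htd]; omega)
    refine ⟨b, hb, ?_⟩
    rwa [Finset.inter_eq_right.2 (Finset.subset_union_left.trans hsb)]

end CfsgLib.SteinerEven
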