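import Cfsg.Prelude.Def_Sporadic_a
import Mathlib.Data.Nat.Choose.Sum

/-! Counting in Steiner systems. -/

set_option autoImplicit false

namespace CfsgLib.Steiner

open Cfsg Finset

variable {α : Type*} [Fintype α] [DecidableEq α] {t k : ℕ} {B : Set (Finset α)}

/-- The blocks as a finset. -/
noncomputable def blocks (B : Set (Finset α)) : Finset (Finset α) :=
  @Finset.filter _ (fun b => b ∈ B) (Classical.decPred _) Finset.univ

theorem mem_blocks {b : Finset α} : b ∈ blocks B ↔ b ∈ B := by simp [blocks]

theorem coe_blocks (B : Set (Finset α)) : (blocks B : Set (Finset α)) = B := Set.ext fun _ => mem_blocks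

theorem ncard_sep (B : Set (Finset α)) (P : Finset α → Prop) [DecidablePred P] :
    {b : Finset α | b ∈ B ∧ P b}.ncard = ((blocks B).filter P).card := by
  rw [← Set.ncard_coe_finset]
  congr 1
  ext b
  simp [mem_blocks]

/-- Sets of a given size between two sets. -/
theorem card_between {s U : Finset α} (h : s ⊆ U) {j : ℕ} (hj : s.card ≤ j) :
    (U.powerset.filter fun r => s ⊆ r ∧ r.card = j).card = (U.card - s.card).choose (j - s.card) := by
  rw [← Finset.card_sdiff_of_subset h, ← Finset.card_powersetCard]
  refine Finset.card_nbij' (fun r => r \ s) (fun r => r ∪ s) ?_ ?_ ?_ ?_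
  · intro r hr
    simp only [Finset.coe_filter, Set.mem_setOf_eq, Finset.mem_powerset] at hr
    simp only [Finset.mem_coe, Finset.mem_powersetCard]
    exact ⟨Finset.sdiff_subset_sdiff hr.1 subset_rfl, by rw [Finset.card_sdiff_of_subset hr.2.1, hr.2.2]⟩
  · intro r hr
    simp only [Finset.mem_coe, Finset.mem_powersetCard] at hr
    simp only [Finset.coe_filter, Set.mem_setOf_eq, Finset.mem_powerset]
    have hd : Disjoint r s := Finset.disjoint_of_subset_left hr.1 Finset.sdiff_disjoint
    refine ⟨Finset.union_subset (hr.1.trans Finset.sdiff_subset) h, Finset.subset_union_right, ?_⟩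
    rw [Finset.card_union_of_disjoint hd, hr.2]; omega
  · intro r hr
    simp only [Finset.coe_filter, Set.mem_setOf_eq] at hr
    exact Finset.sdiff_union_of_subset hr.2.1
  · intro r hr
    simp only [Finset.mem_coe, Finset.mem_powersetCard] at hr
    exact Finset.union_sdiff_cancel_right (Finset.disjoint_of_subset_left hr.1 Finset.sdiff_disjoint)

theorem exists_unique_block (hB : IsSteinerSystem t k B) {b c s : Finset α} (hb : b ∈ B) (hc : c ∈ B)
    (hs : s.card = t) (h1 : s ⊆ b) (h2 : s ⊆ c) : b = c := by
  obtain ⟨d, -, hd⟩ := hB.2 s hs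
  rw [hd b ⟨hb, h1⟩, hd c ⟨hc, h2⟩]

theorem inter_lt (hB : IsSteinerSystem t k B) {b c : Finset α} (hb : b ∈ B) (hc : c ∈ B) (hne : b ≠ c) :
    (b ∩ c).card < t := by
  by_contra hle
  obtain ⟨s, hs, hst⟩ := Finset.exists_subset_card_eq (not_lt.mp hle)
  exact hne (exists_unique_block hB hb hc hst (hs.trans Finset.inter_subset_left) (hs.trans Finset.inter_subset_right))

/-- The number of blocks containing a given set of at most `t` points. -/
theorem lambda (hB : IsSteinerSystem t k B) {s : Finset α} (hs : s.card ≤ t) :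
    ((blocks B).filter fun b => s ⊆ b).card * (k - s.card).choose (t - s.card)
      = (Fintype.card α - s.card).choose (t - s.card) := by
  have hT := card_between (Finset.subset_univ s) hs
  rw [Finset.card_univ] at hT
  rw [← hT]
  classical
  let g : Finset α → Finset α := fun r => if h : r.card = t then (hB.2 r h).exists.choose else ∅
  have hg : ∀ r : Finset α, r.card = t → g r ∈ B ∧ r ⊆ g r := fun r h => by
    simp only [g, dif_pos h]; exact (hB.2 r h).exists.choose_spec
  rw [Finset.card_eq_sum_card_fiberwise (f := g) (t := (blocks B).filter fun b => s ⊆ b)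
    (s := (Finset.univ : Finset α).powerset.filter fun r => s ⊆ r ∧ r.card = t)]
  · symm
    refine Finset.sum_const_nat fun b hb => ?_
    rw [Finset.mem_filter, mem_blocks] at hb
    rw [← hB.1 b hb.1, ← card_between hb.2 hs]
    congr 1
    ext r
    simp only [Finset.mem_filter, Finset.mem_powerset, Finset.subset_univ, true_and]
    constructor
    · rintro ⟨⟨h2, h3⟩, rfl⟩
      exact ⟨(hg r h3).2, h2, h3⟩
    · rintro ⟨h1, h2, h3⟩
      exact ⟨⟨h2, h3⟩, exists_unique_block hB (hg r h3).1 hb.1 h3 (hg r h3).2 h1⟩
  · intro r hr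
    simp only [Finset.coe_filter, Set.mem_setOf_eq] at hr ⊢
    exact ⟨mem_blocks.mpr (hg r hr.2.2).1, fun x hx => (hg r hr.2.2).2 (hr.2.1 hx)⟩

theorem lambda_eq (hB : IsSteinerSystem t k B) {v : ℕ} (hv : Fintype.card α = v) {i n : ℕ} (hi : i ≤ t)
    (h : n * (k - i).choose (t - i) = (v - i).choose (t - i)) (hpos : 0 < (k - i).choose (t - i))
    {s : Finset α} (hs : s.card = i) : ((blocks B).filter fun b => s ⊆ b).card = n := by
  have h1 := lambda hB (s := s) (hs ▸ hi)
  rw [hs, hv, ← h] at h1
  exact Nat.eq_of_mul_eq_mul_right hpos h1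

/-- The moments of the intersection numbers with a set `U`. -/
theorem moments (U : Finset α) (j : ℕ) :
    ∑ i ∈ Finset.range (U.card + 1), ((blocks B).filter fun c => (c ∩ U).card = i).card * i.choose j
      = ∑ s ∈ Finset.powersetCard j U, ((blocks B).filter fun c => s ⊆ c).card := by
  classical
  calc ∑ i ∈ Finset.range (U.card + 1), ((blocks B).filter fun c => (c ∩ U).card = i).card * i.choose j
      = ∑ c ∈ blocks B, ((c ∩ U).card).choose j := by
        rw [← Finset.sum_fiberwise_of_maps_to (s := blocks B) (t := Finset.range (U.card + 1))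
          (g := fun c => (c ∩ U).card) (fun c _ => Finset.mem_range.mpr
            (Nat.lt_succ_of_le (Finset.card_le_card Finset.inter_subset_right)))]
        refine Finset.sum_congr rfl fun i _ => ?_
        rw [Finset.sum_congr rfl (fun c hc => by rw [(Finset.mem_filter.mp hc).2] :
          ∀ c ∈ (blocks B).filter (fun c => (c ∩ U).card = i), ((c ∩ U).card).choose j = i.choose j),
          Finset.sum_const, smul_eq_mul]
    _ = ∑ c ∈ blocks B, ∑ s ∈ Finset.powersetCard j U, if s ⊆ c then 1 else 0 := by
        refine Finset.sum_congr rfl fun c _ => ?_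
        rw [Finset.sum_boole, Nat.cast_id, ← Finset.card_powersetCard]
        congr 1
        ext s
        simp only [Finset.mem_powersetCard, Finset.mem_filter, Finset.subset_inter_iff]
        tauto
    _ = ∑ s ∈ Finset.powersetCard j U, ∑ c ∈ blocks B, if s ⊆ c then 1 else 0 := Finset.sum_comm
    _ = _ := Finset.sum_congr rfl fun s _ => by rw [Finset.sum_boole, Nat.cast_id]

theorem moments_const (U : Finset α) {j n : ℕ}
    (h : ∀ s : Finset α, s.card = j → ((blocks B).filter fun c => s ⊆ c).card = n) :
    ∑ i ∈ Finset.range (U.card + 1), ((blocks B).filter fun c => (c ∩ U).card = i).card * i.choose j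
      = U.card.choose j * n := by
  rw [moments, Finset.sum_congr rfl fun s hs => h s (Finset.mem_powersetCard.mp hs).2, Finset.sum_const,
    Finset.card_powersetCard, smul_eq_mul]

/-- The number of blocks meeting a block in exactly `i` points (the block itself included). -/
noncomputable def meet (B : Set (Finset α)) (b : Finset α) (i : ℕ) : ℕ :=
  ((blocks B).filter fun c => (c ∩ b).card = i).card

theorem meet_self (hB : IsSteinerSystem t k B) (htk : t ≤ k) {b : Finset α} (hb : b ∈ B) : meet B b k = 1 := by
  rw [meet, Finset.card_eq_one]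
  refine ⟨b, ?_⟩
  ext c
  simp only [Finset.mem_filter, mem_blocks, Finset.mem_singleton]
  constructor
  · rintro ⟨hc, hcard⟩
    by_contra hne
    exact absurd (inter_lt hB hc hb hne) (by omega)
  · rintro rfl
    exact ⟨hb, by rw [Finset.inter_self, hB.1 c hb]⟩

theorem meet_big (hB : IsSteinerSystem t k B) {b : Finset α} (hb : b ∈ B) {i : ℕ} (h1 : t ≤ i) (h2 : i < k) :
    meet B b i = 0 := by
  rw [meet, Finset.card_eq_zero, Finset.filter_eq_empty_iff]
  intro c hc hcard
  rcases eq_or_ne c b with rfl | hne
  · rw [Finset.inter_self, hB.1 c (mem_blocks.mp hc)] at hcard; omega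
  · exact absurd (inter_lt hB (mem_blocks.mp hc) hb hne) (by omega)

theorem meet_pos {b c : Finset α} (hc : c ∈ B) : 0 < meet B b (c ∩ b).card :=
  Finset.card_pos.mpr ⟨c, Finset.mem_filter.mpr ⟨mem_blocks.mpr hc, rfl⟩⟩

theorem ncard_eq (hB : IsSteinerSystem t k B) :
    B.ncard * k.choose t = (Fintype.card α).choose t := by
  have h := lambda hB (s := ∅) (by simp)
  simp only [Finset.empty_subset, Finset.filter_true, Finset.card_empty, Nat.sub_zero] at h
  rwa [← coe_blocks B, Set.ncard_coe_finset]

theorem meet_5_8_24 (hB : IsSteinerSystem 5 8 B) (hα : Fintype.card α = 24) {b : Finset α} (hb : b ∈ B) :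
    meet B b 0 = 30 ∧ meet B b 1 = 0 ∧ meet B b 2 = 448 ∧ meet B b 3 = 0 ∧ meet B b 4 = 280 := by
  have hk := meet_self hB (by norm_num) hb
  have h5 := meet_big hB hb (i := 5) le_rfl (by norm_num)
  have h6 := meet_big hB hb (i := 6) (by norm_num) (by norm_num)
  have h7 := meet_big hB hb (i := 7) (by norm_num) (by norm_num)
  have e0 := moments_const (B := B) b (j := 0) fun s hs => lambda_eq hB hα (n := 759) (by norm_num) (by decide) (by decide) hs
  have e1 := moments_const (B := B) b (j := 1) fun s hs => lambda_eq hB hα (n := 253) (by norm_num) (by decide) (by decide) hs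
  have e2 := moments_const (B := B) b (j := 2) fun s hs => lambda_eq hB hα (n := 77) (by norm_num) (by decide) (by decide) hs
  have e3 := moments_const (B := B) b (j := 3) fun s hs => lambda_eq hB hα (n := 21) (by norm_num) (by decide) (by decide) hs
  have e4 := moments_const (B := B) b (j := 4) fun s hs => lambda_eq hB hα (n := 5) (by norm_num) (by decide) (by decide) hs
  unfold meet at *
  rw [hB.1 b hb] at e0 e1 e2 e3 e4
  simp [Finset.sum_range_succ, Nat.choose, -Finset.card_eq_zero] at e0 e1 e2 e3 e4
  omega

theorem meet_4_7_23 (hB : IsSteinerSystem 4 7 B) (hα : Fintype.card α = 23) {b : Finset α} (hb : b ∈ B) :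
    meet B b 0 = 0 ∧ meet B b 1 = 112 ∧ meet B b 2 = 0 ∧ meet B b 3 = 140 := by
  have hk := meet_self hB (by norm_num) hb
  have h4 := meet_big hB hb (i := 4) le_rfl (by norm_num)
  have h5 := meet_big hB hb (i := 5) (by norm_num) (by norm_num)
  have h6 := meet_big hB hb (i := 6) (by norm_num) (by norm_num)
  have e0 := moments_const (B := B) b (j := 0) fun s hs => lambda_eq hB hα (n := 253) (by norm_num) (by decide) (by decide) hs
  have e1 := moments_const (B := B) b (j := 1) fun s hs => lambda_eq hB hα (n := 77) (by norm_num) (by decide) (by decide) hs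
  have e2 := moments_const (B := B) b (j := 2) fun s hs => lambda_eq hB hα (n := 21) (by norm_num) (by decide) (by decide) hs
  have e3 := moments_const (B := B) b (j := 3) fun s hs => lambda_eq hB hα (n := 5) (by norm_num) (by decide) (by decide) hs
  unfold meet at *
  rw [hB.1 b hb] at e0 e1 e2 e3
  simp [Finset.sum_range_succ, Nat.choose, -Finset.card_eq_zero] at e0 e1 e2 e3
  omega

theorem meet_3_6_22 (hB : IsSteinerSystem 3 6 B) (hα : Fintype.card α = 22) {b : Finset α} (hb : b ∈ B) :
    meet B b 0 = 16 ∧ meet B b 1 = 0 ∧ meet B b 2 = 60 := by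
  have hk := meet_self hB (by norm_num) hb
  have h3 := meet_big hB hb (i := 3) le_rfl (by norm_num)
  have h4 := meet_big hB hb (i := 4) (by norm_num) (by norm_num)
  have h5 := meet_big hB hb (i := 5) (by norm_num) (by norm_num)
  have e0 := moments_const (B := B) b (j := 0) fun s hs => lambda_eq hB hα (n := 77) (by norm_num) (by decide) (by decide) hs
  have e1 := moments_const (B := B) b (j := 1) fun s hs => lambda_eq hB hα (n := 21) (by norm_num) (by decide) (by decide) hs
  have e2 := moments_const (B := B) b (j := 2) fun s hs => lambda_eq hB hα (n := 5) (by norm_num) (by decide) (by decide) hs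
  unfold meet at *
  rw [hB.1 b hb] at e0 e1 e2
  simp [Finset.sum_range_succ, Nat.choose, -Finset.card_eq_zero] at e0 e1 e2
  omega

theorem meet_5_6_12 (hB : IsSteinerSystem 5 6 B) (hα : Fintype.card α = 12) {b : Finset α} (hb : b ∈ B) :
    meet B b 0 = 1 ∧ meet B b 1 = 0 ∧ meet B b 2 = 45 ∧ meet B b 3 = 40 ∧ meet B b 4 = 45 := by
  have hk := meet_self hB (by norm_num) hb
  have h5 := meet_big hB hb (i := 5) le_rfl (by norm_num)
  have e0 := moments_const (B := B) b (j := 0) fun s hs => lambda_eq hB hα (n := 132) (by norm_num) (by decide) (by decide) hs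
  have e1 := moments_const (B := B) b (j := 1) fun s hs => lambda_eq hB hα (n := 66) (by norm_num) (by decide) (by decide) hs
  have e2 := moments_const (B := B) b (j := 2) fun s hs => lambda_eq hB hα (n := 30) (by norm_num) (by decide) (by decide) hs
  have e3 := moments_const (B := B) b (j := 3) fun s hs => lambda_eq hB hα (n := 12) (by norm_num) (by decide) (by decide) hs
  have e4 := moments_const (B := B) b (j := 4) fun s hs => lambda_eq hB hα (n := 4) (by norm_num) (by decide) (by decide) hs
  unfold meet at *
  rw [hB.1 b hb] at e0 e1 e2 e3 e4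
  simp [Finset.sum_range_succ, Nat.choose, -Finset.card_eq_zero] at e0 e1 e2 e3 e4
  omega

/-- In an S(3, 6, 22) a point off a block lies on 6 blocks disjoint from it. -/
theorem six_disjoint (hB : IsSteinerSystem 3 6 B) (hα : Fintype.card α = 22) {b : Finset α} (hb : b ∈ B)
    {p : α} (hp : p ∉ b) : (((blocks B).filter fun c => (c ∩ b).card = 0).filter fun c => p ∈ c).card = 6 := by
  classical
  obtain ⟨S, hS⟩ : ∃ S, S = (blocks B).filter fun c => p ∈ c := ⟨_, rfl⟩
  have h21 : S.card = 21 := by
    have := lambda_eq hB hα (n := 21) (i := 1) (by norm_num) (by decide) (by decide) (Finset.card_singleton p)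
    simpa [hS, Finset.singleton_subset_iff] using this
  have hval : ∀ c ∈ S, (c ∩ b).card = 0 ∨ (c ∩ b).card = 2 := by
    intro c hc
    rw [hS, Finset.mem_filter, mem_blocks] at hc
    have hne : c ≠ b := fun e => hp (e ▸ hc.2)
    have h1 := inter_lt hB hc.1 hb hne
    have h2 := meet_pos (b := b) hc.1
    have h3 := (meet_3_6_22 hB hα hb).2.1
    rcases (show (c ∩ b).card = 0 ∨ (c ∩ b).card = 1 ∨ (c ∩ b).card = 2 by omega) with h | h | h
    · exact Or.inl h
    · rw [h] at h2; omega
    · exact Or.inr h
  have hsum : ∑ c ∈ S, (c ∩ b).card = 30 := by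
    have e1 : ∀ c : Finset α, (c ∩ b).card = ∑ q ∈ b, if q ∈ c then 1 else 0 := fun c => by
      rw [Finset.sum_boole, Nat.cast_id]; congr 1; ext q; simp [and_comm]
    simp only [e1]
    rw [Finset.sum_comm]
    have e2 : ∀ q ∈ b, (∑ c ∈ S, if q ∈ c then 1 else 0) = 5 := by
      intro q hq
      rw [Finset.sum_boole, Nat.cast_id]
      have hpq : p ≠ q := fun e => hp (e ▸ hq)
      have := lambda_eq hB hα (n := 5) (i := 2) (by norm_num) (by decide) (by decide) (Finset.card_pair hpq)
      rw [← this, hS, Finset.filter_filter]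
      congr 1
      ext c
      simp [Finset.insert_subset_iff]
    rw [Finset.sum_congr rfl e2, Finset.sum_const, hB.1 b hb, smul_eq_mul]
  have h2 : ∑ c ∈ S, (c ∩ b).card = (S.filter fun c => ¬ (c ∩ b).card = 0).card * 2 := by
    rw [← Finset.sum_filter_add_sum_filter_not S (fun c => (c ∩ b).card = 0),
      Finset.sum_eq_zero (fun c hc => (Finset.mem_filter.mp hc).2), zero_add,
      Finset.sum_congr rfl (fun c hc => (hval c (Finset.mem_filter.mp hc).1).resolve_left (Finset.mem_filter.mp hc).2),
      Finset.sum_const, smul_eq_mul]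
  have h3 := Finset.card_filter_add_card_filter_not (s := S) (fun c => (c ∩ b).card = 0)
  rw [Finset.filter_comm, ← hS]
  omega

end CfsgLib.Steiner
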