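import Cfsg.Agent.Lib.Steiner.Count
import Mathlib.Combinatorics.SimpleGraph.StronglyRegular

/-! The two graphs of an S(3, 6, 22). -/

set_option autoImplicit false

namespace CfsgLib.Steiner

open Cfsg Finset

variable {α : Type*} [Fintype α] [DecidableEq α] {B : Set (Finset α)}

theorem both_disjoint (hB : IsSteinerSystem 3 6 B) (hα : Fintype.card α = 22) {b c : Finset α} (hb : b ∈ B)
    (hc : c ∈ B) :
    (Disjoint b c → ((blocks B).filter fun d => Disjoint b d ∧ Disjoint c d).card = 0) ∧
    (¬ Disjoint b c → b ≠ c → ((blocks B).filter fun d => Disjoint b d ∧ Disjoint c d).card = 4) := by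
  classical
  obtain ⟨m0, m1, -⟩ := meet_3_6_22 hB hα hb
  obtain ⟨S, hS⟩ : ∃ S, S = (blocks B).filter fun d => (d ∩ b).card = 0 := ⟨_, rfl⟩
  have hS16 : S.card = 16 := hS ▸ m0
  have hdis : ∀ d : Finset α, (d ∩ b).card = 0 ↔ Disjoint b d := fun d => by
    rw [Finset.card_eq_zero, disjoint_comm, Finset.disjoint_iff_inter_eq_empty]
  have hsum : ∑ d ∈ S, (d ∩ c).card = (c \ b).card * 6 := by
    have e1 : ∀ d : Finset α, (d ∩ c).card = ∑ q ∈ c, if q ∈ d then 1 else 0 := fun d => by
      rw [Finset.sum_boole, Nat.cast_id]; congr 1; ext q; simp [and_comm]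
    simp only [e1]
    rw [Finset.sum_comm, ← Finset.sum_sdiff (Finset.inter_subset_left : c ∩ b ⊆ c)]
    have z : ∀ q ∈ c ∩ b, (∑ d ∈ S, if q ∈ d then 1 else 0) = 0 := fun q hq => Finset.sum_eq_zero fun d hd => by
      rw [hS, Finset.mem_filter, hdis] at hd
      exact if_neg fun hqd => Finset.disjoint_left.mp hd.2 (Finset.mem_inter.mp hq).2 hqd
    rw [Finset.sum_eq_zero z, add_zero, Finset.sdiff_inter_self_left]
    exact Finset.sum_const_nat fun q hq => by
      rw [Finset.sum_boole, Nat.cast_id, hS]
      exact six_disjoint hB hα hb (Finset.mem_sdiff.mp hq).2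
  have hval : ∀ d ∈ S, d ≠ c → (d ∩ c).card = 0 ∨ (d ∩ c).card = 2 := by
    intro d hd hne
    rw [hS, Finset.mem_filter, mem_blocks] at hd
    have h1 := inter_lt hB hd.1 hc hne
    have h2 := meet_pos (b := c) hd.1
    have h3 := (meet_3_6_22 hB hα hc).2.1
    rcases (show (d ∩ c).card = 0 ∨ (d ∩ c).card = 1 ∨ (d ∩ c).card = 2 by omega) with h | h | h
    · exact Or.inl h
    · rw [h] at h2; omega
    · exact Or.inr h
  obtain ⟨x, hx⟩ : ∃ x, x = ((blocks B).filter fun d => Disjoint b d ∧ Disjoint c d).card := ⟨_, rfl⟩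
  have hx' : (S.filter fun d => (d ∩ c).card = 0).card = x := by
    rw [hx, hS, Finset.filter_filter]
    congr 1
    ext d
    simp only [Finset.mem_filter, hdis]
    rw [Finset.card_eq_zero, disjoint_comm (a := c), Finset.disjoint_iff_inter_eq_empty (s := d) (t := c)]
  have hpart := Finset.card_filter_add_card_filter_not (s := S) (fun d => (d ∩ c).card = 0)
  have hsum2 : ∑ d ∈ S, (d ∩ c).card = ∑ d ∈ S.filter (fun d => ¬ (d ∩ c).card = 0), (d ∩ c).card := by
    rw [← Finset.sum_filter_add_sum_filter_not S (fun d => (d ∩ c).card = 0),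
      Finset.sum_eq_zero (fun d hd => (Finset.mem_filter.mp hd).2), zero_add]
  rw [← hx]
  constructor
  · intro hbc
    have hcS : c ∈ S.filter fun d => ¬ (d ∩ c).card = 0 := by
      rw [Finset.mem_filter, hS, Finset.mem_filter, mem_blocks, hdis, Finset.inter_self, hB.1 c hc]
      exact ⟨⟨hc, hbc⟩, by norm_num⟩
    have h2 : ∑ d ∈ S.filter (fun d => ¬ (d ∩ c).card = 0), (d ∩ c).card
        = ((S.filter fun d => ¬ (d ∩ c).card = 0).card - 1) * 2 + 6 := by
      rw [← Finset.sum_erase_add _ _ hcS, Finset.inter_self, hB.1 c hc, Finset.sum_const_nat (m := 2) (fun d hd => by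
        obtain ⟨hne, hd⟩ := Finset.mem_erase.mp hd
        rw [Finset.mem_filter] at hd
        exact (hval d hd.1 hne).resolve_left hd.2), Finset.card_erase_of_mem hcS]
    have hcb : (c \ b).card = 6 := by
      rw [Finset.sdiff_eq_self_of_disjoint (disjoint_comm.mp hbc), hB.1 c hc]
    rw [hsum2, h2, hcb] at hsum
    omega
  · intro hbc hne
    have h2 : ∑ d ∈ S.filter (fun d => ¬ (d ∩ c).card = 0), (d ∩ c).card
        = (S.filter fun d => ¬ (d ∩ c).card = 0).card * 2 := by
      rw [Finset.sum_const_nat (m := 2) (fun d hd => by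
        rw [Finset.mem_filter] at hd
        refine (hval d hd.1 ?_).resolve_left hd.2
        rintro rfl
        rw [hS, Finset.mem_filter, hdis] at hd
        exact hbc hd.1.2)]
    have hcb : (c \ b).card = 4 := by
      have h3 := inter_lt hB hc hb hne.symm
      have h4 := meet_pos (b := b) hc
      have h5 : (c ∩ b).card ≠ 0 := fun h => hbc ((hdis c).mp h)
      have h6 := Finset.card_sdiff_add_card_inter c b
      rw [hB.1 c hc] at h6
      rcases (show (c ∩ b).card = 1 ∨ (c ∩ b).card = 2 by omega) with h | h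
      · rw [h] at h4; omega
      · omega
    rw [hsum2, h2, hcb] at hsum
    omega

section

variable [Fintype B]

theorem card_subtype_filter (P : Finset α → Prop) [DecidablePred P] :
    (Finset.univ.filter fun c : B => P c).card = ((blocks B).filter P).card := by
  rw [← Finset.card_map (Function.Embedding.subtype _)]
  congr 1
  ext c
  simp only [Finset.mem_map, Finset.mem_filter, Finset.mem_univ, true_and, mem_blocks]
  exact ⟨fun ⟨d, hd, e⟩ => e ▸ ⟨d.2, hd⟩, fun ⟨h1, h2⟩ => ⟨⟨c, h1⟩, h2, rfl⟩⟩

theorem blockGraph_adj (hB : IsSteinerSystem 3 6 B) (b c : B) :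
    (blockGraph B).Adj b c ↔ Disjoint (b : Finset α) (c : Finset α) := by
  rw [blockGraph, SimpleGraph.fromRel_adj]
  refine ⟨fun h => h.2.elim id fun h' => Disjoint.symm h', fun h => ⟨fun e => ?_, Or.inl h⟩⟩
  subst e
  have := hB.1 _ b.2
  rw [disjoint_self, Finset.bot_eq_empty] at h
  rw [h, Finset.card_empty] at this
  omega

theorem blockGraph_srg (hB : IsSteinerSystem 3 6 B) (hα : Fintype.card α = 22)
    [DecidableRel (blockGraph B).Adj] : (blockGraph B).IsSRGWith 77 16 0 4 := by
  classical
  have hcard : Fintype.card B = 77 := by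
    have := lambda_eq hB hα (n := 77) (by norm_num) (by decide) (by decide) (Finset.card_empty (α := α))
    rw [← this, ← Finset.card_univ, ← card_subtype_filter (B := B) (fun c => ∅ ⊆ c)]
    simp
  refine ⟨hcard, fun b => ?_, fun b c hbc => ?_, fun b c hne hbc => ?_⟩
  · rw [← SimpleGraph.card_neighborFinset_eq_degree, show (blockGraph B).neighborFinset b
      = Finset.univ.filter fun c : B => Disjoint (b : Finset α) c by ext c; simp [blockGraph_adj hB],
      card_subtype_filter (fun c => Disjoint (b : Finset α) c), ← (meet_3_6_22 hB hα b.2).1, meet]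
    congr 1
    ext c
    simp [disjoint_comm, Finset.disjoint_iff_inter_eq_empty, Finset.inter_comm c]
  · rw [← Set.toFinset_card, show ((blockGraph B).commonNeighbors b c).toFinset
      = Finset.univ.filter fun d : B => Disjoint (b : Finset α) d ∧ Disjoint (c : Finset α) d by
      ext d; simp [SimpleGraph.mem_commonNeighbors, blockGraph_adj hB],
      card_subtype_filter (fun d => Disjoint (b : Finset α) d ∧ Disjoint (c : Finset α) d)]
    exact (both_disjoint hB hα b.2 c.2).1 ((blockGraph_adj hB b c).mp hbc)
  · rw [← Set.toFinset_card, show ((blockGraph B).commonNeighbors b c).toFinset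
      = Finset.univ.filter fun d : B => Disjoint (b : Finset α) d ∧ Disjoint (c : Finset α) d by
      ext d; simp [SimpleGraph.mem_commonNeighbors, blockGraph_adj hB],
      card_subtype_filter (fun d => Disjoint (b : Finset α) d ∧ Disjoint (c : Finset α) d)]
    exact (both_disjoint hB hα b.2 c.2).2 (fun h => hbc ((blockGraph_adj hB b c).mpr h))
      (fun e => hne (Subtype.ext e))

theorem card_option_sum {β : Type*} [Fintype β] (P : Option (α ⊕ β) → Prop) [DecidablePred P] :
    (Finset.univ.filter P).card = (if P none then 1 else 0) + (Finset.univ.filter fun a : α => P (some (Sum.inl a))).card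
      + (Finset.univ.filter fun b : β => P (some (Sum.inr b))).card := by
  simp only [Finset.card_filter, Fintype.sum_option, Fintype.sum_sum_type, add_assoc]

theorem pbg_adj (hB : IsSteinerSystem 3 6 B) :
    (∀ a, (pointBlockGraph B).Adj none (some (Sum.inl a))) ∧
    (∀ b : B, ¬ (pointBlockGraph B).Adj none (some (Sum.inr b))) ∧
    (∀ a a', ¬ (pointBlockGraph B).Adj (some (Sum.inl a)) (some (Sum.inl a'))) ∧
    (∀ a (b : B), (pointBlockGraph B).Adj (some (Sum.inl a)) (some (Sum.inr b)) ↔ a ∈ (b : Finset α)) ∧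
    (∀ b c : B, (pointBlockGraph B).Adj (some (Sum.inr b)) (some (Sum.inr c)) ↔
      Disjoint (b : Finset α) (c : Finset α)) := by
  refine ⟨fun a => ?_, fun b => ?_, fun a a' => ?_, fun a b => ?_, fun b c => ?_⟩ <;>
    rw [pointBlockGraph, SimpleGraph.fromRel_adj]
  · exact ⟨by simp, Or.inl trivial⟩
  · rintro ⟨-, h | h⟩ <;> exact h
  · rintro ⟨-, h | h⟩ <;> exact h
  · exact ⟨fun h => h.2.elim id (fun h' => h'.elim), fun h => ⟨by simp, Or.inl h⟩⟩
  · have := blockGraph_adj hB b c
    rw [blockGraph, SimpleGraph.fromRel_adj] at this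
    rw [← this]
    exact and_congr (by simp) Iff.rfl

theorem pointBlock_srg (hB : IsSteinerSystem 3 6 B) (hα : Fintype.card α = 22)
    [DecidableRel (pointBlockGraph B).Adj] : (pointBlockGraph B).IsSRGWith 100 22 0 6 := by
  classical
  obtain ⟨a1, a2, a3, a4, a5⟩ := pbg_adj hB
  have a1' : ∀ a, (pointBlockGraph B).Adj (some (Sum.inl a)) none := fun a => (a1 a).symm
  have a2' : ∀ b : B, ¬ (pointBlockGraph B).Adj (some (Sum.inr b)) none := fun b h => a2 b h.symm
  have a4' : ∀ a (b : B), (pointBlockGraph B).Adj (some (Sum.inr b)) (some (Sum.inl a)) ↔ a ∈ (b : Finset α) :=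
    fun a b => ⟨fun h => (a4 a b).mp h.symm, fun h => ((a4 a b).mpr h).symm⟩
  have hp : ∀ a : α, (Finset.univ.filter fun b : B => a ∈ (b : Finset α)).card = 21 := fun a => by
    have := lambda_eq hB hα (n := 21) (by norm_num) (by decide) (by decide) (Finset.card_singleton a)
    rw [← this, card_subtype_filter (fun b => a ∈ b)]
    simp
  have hb6 : ∀ b : B, (Finset.univ.filter fun a : α => a ∈ (b : Finset α)).card = 6 := fun b => by
    rw [Finset.filter_univ_mem, hB.1 _ b.2]
  have hc6 : ∀ b : B, (b : Finset α).card = 6 := fun b => hB.1 _ b.2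
  have hsix : ∀ (b : B) (a : α), a ∉ (b : Finset α) →
      (Finset.univ.filter fun d : B => a ∈ (d : Finset α) ∧ Disjoint (b : Finset α) d).card = 6 := fun b a ha => by
    rw [card_subtype_filter (fun d => a ∈ d ∧ Disjoint (b : Finset α) d), ← six_disjoint hB hα b.2 ha,
      Finset.filter_filter]
    congr 1
    ext d
    simp [disjoint_comm, Finset.disjoint_iff_inter_eq_empty, Finset.inter_comm d, and_comm]
  have h16 : ∀ b : B, (Finset.univ.filter fun d : B => Disjoint (b : Finset α) d).card = 16 := fun b => by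
    rw [card_subtype_filter (fun d => Disjoint (b : Finset α) d), ← (meet_3_6_22 hB hα b.2).1, meet]
    congr 1
    ext c
    simp [disjoint_comm, Finset.disjoint_iff_inter_eq_empty, Finset.inter_comm c]
  have hzero : ∀ (b : B) (a : α), a ∈ (b : Finset α) →
      (Finset.univ.filter fun d : B => a ∈ (d : Finset α) ∧ Disjoint (b : Finset α) d).card = 0 := fun b a ha => by
    rw [Finset.card_eq_zero, Finset.filter_eq_empty_iff]
    exact fun d _ h => Finset.disjoint_left.mp h.2 ha h.1
  have hdeg : ∀ v, (pointBlockGraph B).degree v = 22 := by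
    intro v
    rw [← SimpleGraph.card_neighborFinset_eq_degree, SimpleGraph.neighborFinset_eq_filter, card_option_sum]
    rcases v with - | a | b
    · simp [a1, a2, hα]
    · simp [a1', a3, a4, hp]
    · simp [a2', a4', a5, hb6, hc6, h16]
  have hcard : Fintype.card (Option (α ⊕ B)) = 100 := by
    have := lambda_eq hB hα (n := 77) (by norm_num) (by decide) (by decide) (Finset.card_empty (α := α))
    rw [← card_subtype_filter (B := B) (fun c => ∅ ⊆ c)] at this
    simp at this
    simp [hα, this]
  have hcn : ∀ v w, Fintype.card ((pointBlockGraph B).commonNeighbors v w)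
      = (Finset.univ.filter fun u => (pointBlockGraph B).Adj v u ∧ (pointBlockGraph B).Adj w u).card := by
    intro v w
    rw [← Set.toFinset_card]
    congr 1
    ext u
    simp [SimpleGraph.mem_commonNeighbors]
  refine ⟨hcard, hdeg, fun v w h => ?_, fun v w hne h => ?_⟩
  · rw [hcn, card_option_sum]
    rcases v with - | a | b <;> rcases w with - | a' | c
    · exact absurd h (SimpleGraph.irrefl _)
    · simp [a1, a2, a1', a3, a4]
    · exact absurd h (a2 c)
    · simp [a1, a2, a1', a3, a4]
    · exact absurd h (a3 a a')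
    · simp [a2', a3, a4, a4', a5, hzero c a ((a4 a c).mp h)]
    · exact absurd h (a2' b)
    · have := hzero b a' ((a4' a' b).mp h)
      simp [a2', a3, a4, a4', a5, and_comm (b := a' ∈ _)] at this ⊢
      exact this
    · have hbc := (a5 b c).mp h
      have h1 := (both_disjoint hB hα b.2 c.2).1 hbc
      rw [← card_subtype_filter (B := B) (fun d => Disjoint (b : Finset α) d ∧ Disjoint (c : Finset α) d)] at h1
      have h2 : (Finset.univ.filter fun a : α => a ∈ (b : Finset α) ∧ a ∈ (c : Finset α)).card = 0 := by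
        rw [Finset.card_eq_zero, Finset.filter_eq_empty_iff]
        exact fun a _ h' => Finset.disjoint_left.mp hbc h'.1 h'.2
      simp [a2', a4', a5, h1, h2]
  · rw [hcn, card_option_sum]
    rcases v with - | a | b <;> rcases w with - | a' | c
    · exact absurd rfl hne
    · exact absurd (a1 a') h
    · simp [a1, a2, a2', a4', a5, hb6, hc6]
    · exact absurd (a1' a) h
    · have haa : a ≠ a' := fun e => hne (by rw [e])
      have h5 : (Finset.univ.filter fun d : B => a ∈ (d : Finset α) ∧ a' ∈ (d : Finset α)).card = 5 := by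
        have := lambda_eq hB hα (n := 5) (by norm_num) (by decide) (by decide) (Finset.card_pair haa)
        rw [← this, card_subtype_filter (fun d => a ∈ d ∧ a' ∈ d)]
        simp [Finset.insert_subset_iff]
      simp [a1', a3, a4, h5]
    · simp [a2', a3, a4, a4', a5, hsix c a (fun e => h ((a4 a c).mpr e))]
    · simp [a1, a2, a2', a4', a5, hb6, hc6]
    · have := hsix b a' (fun e => h ((a4' a' b).mpr e))
      simp [a2', a3, a4, a4', a5, and_comm (b := a' ∈ _)] at this ⊢
      exact this
    · have hbc : ¬ Disjoint (b : Finset α) c := fun e => h ((a5 b c).mpr e)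
      have hne' : (b : Finset α) ≠ c := fun e => hne (by rw [Subtype.ext e])
      have h1 := (both_disjoint hB hα b.2 c.2).2 hbc hne'
      rw [← card_subtype_filter (B := B) (fun d => Disjoint (b : Finset α) d ∧ Disjoint (c : Finset α) d)] at h1
      have h2 : (Finset.univ.filter fun a : α => a ∈ (b : Finset α) ∧ a ∈ (c : Finset α)).card = 2 := by
        have e : (Finset.univ.filter fun a : α => a ∈ (b : Finset α) ∧ a ∈ (c : Finset α)) = (b : Finset α) ∩ c := by
          ext a; simp
        rw [e]
        have h3 := inter_lt hB b.2 c.2 hne'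
        have h4 := meet_pos (b := (c : Finset α)) b.2
        have h5 := (meet_3_6_22 hB hα c.2).2.1
        have h6 : ((b : Finset α) ∩ c).card ≠ 0 := by
          rw [Ne, Finset.card_eq_zero, ← Finset.disjoint_iff_inter_eq_empty]; exact hbc
        rcases (show ((b : Finset α) ∩ c).card = 1 ∨ ((b : Finset α) ∩ c).card = 2 by omega) with e | e
        · rw [e] at h4; omega
        · exact e
      simp [a2', a4', a5, h1, h2]

end

end CfsgLib.Steiner
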