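import Cfsg.Agent.Lib.Steiner.Count

/-! The intersection triangle of an S(5, 6, 12). -/

set_option autoImplicit false

namespace CfsgLib.Steiner

open Cfsg Finset

variable {α : Type*} [Fintype α] [DecidableEq α] {B : Set (Finset α)}

/-- Blocks other than `b` containing `s` and meeting `b` in exactly `j` points. -/
noncomputable def level (B : Set (Finset α)) (b s : Finset α) (j : ℕ) : ℕ :=
  ((blocks B).filter fun c => c ≠ b ∧ s ⊆ c ∧ (b ∩ c).card = j).card

theorem exact_eq (hB : IsSteinerSystem 5 6 B) {b r : Finset α} (hb : b ∈ B) (hr : r.card < 6) :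
    {c : Finset α | c ∈ B ∧ b ∩ c = r}.ncard = ((blocks B).filter fun c => c ≠ b ∧ b ∩ c = r).card := by
  rw [ncard_sep]
  congr 1
  ext c
  simp only [Finset.mem_filter, mem_blocks]
  refine ⟨fun h => ⟨h.1, fun e => ?_, h.2⟩, fun h => ⟨h.1, h.2.2⟩⟩
  rw [e, Finset.inter_self] at h
  rw [← h.2, hB.1 b hb] at hr
  omega

theorem level_eq (hB : IsSteinerSystem 5 6 B) {b s : Finset α} (hb : b ∈ B) (hs : s ⊆ b) {j n : ℕ}
    (hsj : s.card ≤ j) (hj : j < 6)
    (hn : ∀ r ⊆ b, s ⊆ r → r.card = j → {c : Finset α | c ∈ B ∧ b ∩ c = r}.ncard = n) :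
    level B b s j = (6 - s.card).choose (j - s.card) * n := by
  rw [← hB.1 b hb, ← card_between hs hsj, level,
    Finset.card_eq_sum_card_fiberwise (f := fun c => b ∩ c) (t := b.powerset.filter fun r => s ⊆ r ∧ r.card = j)]
  · rw [Finset.sum_congr rfl (g := fun _ => n), Finset.sum_const, smul_eq_mul]
    intro r hr
    rw [Finset.mem_filter, Finset.mem_powerset] at hr
    rw [← hn r hr.1 hr.2.1 hr.2.2, exact_eq hB hb (hr.2.2 ▸ hj), Finset.filter_filter]
    congr 1
    ext c
    simp only [Finset.mem_filter]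
    constructor
    · rintro ⟨hc, ⟨hne, -, -⟩, e⟩; exact ⟨hc, hne, e⟩
    · rintro ⟨hc, hne, e⟩
      exact ⟨hc, ⟨hne, hr.2.1.trans (e ▸ Finset.inter_subset_right), e ▸ hr.2.2⟩, e⟩
  · intro c hc
    simp only [Finset.coe_filter, Set.mem_ofPred_eq, Finset.mem_powerset] at hc ⊢
    exact ⟨Finset.inter_subset_left, Finset.subset_inter hs hc.2.2.1, hc.2.2.2⟩

theorem level_sum (hB : IsSteinerSystem 5 6 B) {b s : Finset α} (hb : b ∈ B) (hs : s ⊆ b) {n : ℕ}
    (hn : ((blocks B).filter fun c => s ⊆ c).card = n + 1) :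
    n = ∑ j ∈ (Finset.range 5).filter (fun j => s.card ≤ j), level B b s j := by
  classical
  have h1 : ((blocks B).filter fun c => c ≠ b ∧ s ⊆ c).card = n := by
    have e : (blocks B).filter (fun c => s ⊆ c) = insert b ((blocks B).filter fun c => c ≠ b ∧ s ⊆ c) := by
      ext c
      simp only [Finset.mem_filter, Finset.mem_insert, mem_blocks]
      constructor
      · rintro ⟨hc, hsc⟩
        by_cases h : c = b
        · exact Or.inl h
        · exact Or.inr ⟨hc, h, hsc⟩
      · rintro (rfl | ⟨hc, -, hsc⟩)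
        exacts [⟨hb, hs⟩, ⟨hc, hsc⟩]
    rw [e, Finset.card_insert_of_notMem (by simp)] at hn
    omega
  rw [← h1, Finset.card_eq_sum_card_fiberwise (f := fun c => (b ∩ c).card)
    (t := (Finset.range 5).filter (fun j => s.card ≤ j))]
  · refine Finset.sum_congr rfl fun j _ => ?_
    rw [level, Finset.filter_filter]
    congr 1
    ext c
    simp only [Finset.mem_filter]
    tauto
  · intro c hc
    simp only [Finset.coe_filter, Set.mem_ofPred_eq, Finset.mem_range, mem_blocks] at hc ⊢
    exact ⟨inter_lt hB hb hc.1 (Ne.symm hc.2.1), Finset.card_le_card (Finset.subset_inter hs hc.2.2)⟩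

theorem triangle (hB : IsSteinerSystem 5 6 B) (hα : Fintype.card α = 12) {b : Finset α} (hb : b ∈ B)
    {s : Finset α} (hs : s ⊆ b) :
    (s.card = 2 → {c : Finset α | c ∈ B ∧ b ∩ c = s}.ncard = 3) ∧
    (s.card = 3 → {c : Finset α | c ∈ B ∧ b ∩ c = s}.ncard = 2) ∧
    (s.card = 4 → {c : Finset α | c ∈ B ∧ b ∩ c = s}.ncard = 3) := by
  have self : ∀ r ⊆ b, r.card ≤ 4 → level B b r r.card = {c : Finset α | c ∈ B ∧ b ∩ c = r}.ncard := by
    intro r hr h4
    rw [level_eq hB hb hr le_rfl (by omega) (n := {c : Finset α | c ∈ B ∧ b ∩ c = r}.ncard), Nat.sub_self,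
      Nat.choose_zero_right, one_mul]
    intro r' _ hsub hcard
    rw [← Finset.eq_of_subset_of_card_le hsub hcard.le]
  have n4 : ∀ r ⊆ b, r.card = 4 → {c : Finset α | c ∈ B ∧ b ∩ c = r}.ncard = 3 := by
    intro r hr h4
    have h := level_sum hB hb hr (n := 3) (lambda_eq hB hα (by norm_num) (by decide) (by decide) h4)
    rw [show (Finset.range 5).filter (fun j => r.card ≤ j) = {4} by rw [h4]; decide, Finset.sum_singleton] at h
    have := self r hr h4.le
    rw [h4] at this
    omega
  have n3 : ∀ r ⊆ b, r.card = 3 → {c : Finset α | c ∈ B ∧ b ∩ c = r}.ncard = 2 := by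
    intro r hr h3
    have h := level_sum hB hb hr (n := 11) (lambda_eq hB hα (by norm_num) (by decide) (by decide) h3)
    rw [show (Finset.range 5).filter (fun j => r.card ≤ j) = {3, 4} by rw [h3]; decide,
      Finset.sum_pair (by norm_num)] at h
    have e3 := self r hr (by omega)
    have e4 := level_eq hB hb hr (j := 4) (n := 3) (by omega) (by norm_num) (fun r' h1 _ h2 => n4 r' h1 h2)
    rw [h3] at e3 e4
    norm_num [Nat.choose] at e4
    omega
  refine ⟨fun h2 => ?_, fun h3 => n3 s hs h3, fun h4 => n4 s hs h4⟩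
  have h := level_sum hB hb hs (n := 29) (lambda_eq hB hα (by norm_num) (by decide) (by decide) h2)
  rw [show (Finset.range 5).filter (fun j => s.card ≤ j) = {2, 3, 4} by rw [h2]; decide,
    Finset.sum_insert (by decide), Finset.sum_pair (by norm_num)] at h
  have e2 := self s hs (by omega)
  have e3 := level_eq hB hb hs (j := 3) (n := 2) (by omega) (by norm_num) (fun r' h1 _ h' => n3 r' h1 h')
  have e4 := level_eq hB hb hs (j := 4) (n := 3) (by omega) (by norm_num) (fun r' h1 _ h' => n4 r' h1 h')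
  rw [h2] at e2 e3 e4
  norm_num [Nat.choose] at e3 e4
  omega

end CfsgLib.Steiner
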